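import Mathlib

/-!
# Recognition of rank 3 groups: reduction to facts about a model
-/

set_option autoImplicit false
set_option linter.unusedSectionVars false

namespace CfsgLib.Rank3

open MulAction Subgroup Equiv
open scoped Pointwise

variable {Ω : Type*} {G : Subgroup (Perm Ω)} {a b c : Ω} {k l : ℕ}

/-- the orbital of `(a, b)` -/
def Nb (G : Subgroup (Perm Ω)) (a b x : Ω) : Set Ω := {y | ∃ σ ∈ G, σ a = x ∧ σ b = y}

theorem Nb_smul {σ : Perm Ω} (h : σ ∈ G) (x : Ω) : Nb G a b (σ • x) = σ • Nb G a b x := by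
  ext y
  rw [Set.mem_smul_set_iff_inv_smul_mem]
  exact ⟨fun ⟨τ, h1, h2, h3⟩ => ⟨σ⁻¹ * τ, mul_mem (inv_mem h) h1, by simp [h2], by simp [h3]⟩,
    fun ⟨τ, h1, h2, h3⟩ => ⟨σ * τ, mul_mem h h1, by simp [h2], by simp [h3]⟩⟩

theorem mem_Nb_smul {σ : Perm Ω} (h : σ ∈ G) {x y : Ω} : σ y ∈ Nb G a b (σ x) ↔ y ∈ Nb G a b x :=
  ((Nb_smul h x).symm ▸ Iff.rfl : σ y ∈ Nb G a b (σ x) ↔ σ • y ∈ σ • Nb G a b x).trans Set.smul_mem_smul_set_iff

theorem Nb_self : Nb G a b a = orbit (stabilizer G a) b :=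
  Set.ext fun _ => ⟨fun ⟨σ, h1, h2, h3⟩ => ⟨⟨⟨σ, h1⟩, h2⟩, h3⟩, fun ⟨σ, h⟩ => ⟨σ.1.1, σ.1.2, σ.2, h⟩⟩

theorem Nb_congr {b' : Ω} (h : b' ∈ Nb G a b a) : Nb G a b' = Nb G a b := by
  obtain ⟨τ, h1, h2, rfl⟩ := h
  exact funext fun x => Set.ext fun y => ⟨fun ⟨σ, h3, h4, h5⟩ => ⟨σ * τ, mul_mem h3 h1, by simp [h2, h4], h5⟩,
    fun ⟨σ, h3, h4, h5⟩ => ⟨σ * τ⁻¹, mul_mem h3 (inv_mem h1), by
      rw [Perm.mul_apply, Perm.inv_eq_iff_eq.2 h2.symm, h4], by simpa using h5⟩⟩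

/-- a rank 3 group with subdegrees `1, k, l` -/
structure R3 (G : Subgroup (Perm Ω)) (a b c : Ω) (k l : ℕ) : Prop where
  tr : ∀ x, ∃ σ ∈ G, σ a = x
  hb : (Nb G a b a).ncard = k
  hc : (Nb G a c a).ncard = l
  card : Nat.card Ω = 1 + k + l
  ne : k ≠ l
  k1 : 1 < k
  l1 : 1 < l

variable [Finite Ω]

theorem card_orb (x y : Ω) : Nat.card (G ⊓ stabilizer (Perm Ω) x : Subgroup _) =
    (Nb G x y x).ncard * Nat.card (G ⊓ stabilizer (Perm Ω) x ⊓ stabilizer (Perm Ω) y : Subgroup _) := by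
  set P := G ⊓ stabilizer (Perm Ω) x
  rw [← Nat.card_congr (orbitProdStabilizerEquivGroup P y), Nat.card_prod, Nat.card_coe_set_eq]
  congr 1
  · exact congrArg _ (Set.ext fun _ => ⟨fun ⟨σ, h⟩ => ⟨σ.1, σ.2.1, σ.2.2, h⟩, fun ⟨σ, h1, h2, h3⟩ => ⟨⟨σ, h1, h2⟩, h3⟩⟩)
  · exact Nat.card_congr ⟨fun σ => ⟨σ.1.1, σ.1.2, σ.2⟩, fun σ => ⟨⟨σ.1, σ.2.1⟩, σ.2.2⟩, fun _ => rfl, fun _ => rfl⟩

namespace R3

theorem ncard (R : R3 G a b c k l) (x : Ω) : (Nb G a b x).ncard = k := by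
  obtain ⟨σ, h, rfl⟩ := R.tr x
  exact (congrArg _ (Nb_smul h a)).trans ((Set.ncard_smul_set _ _).trans R.hb)

theorem swap (R : R3 G a b c k l) : R3 G a c b l k :=
  ⟨R.tr, R.hc, R.hb, by rw [R.card]; ring, R.ne.symm, R.l1, R.k1⟩

theorem irrefl (R : R3 G a b c k l) (x : Ω) : x ∉ Nb G a b x := fun ⟨σ, _, h2, h3⟩ => by
  obtain rfl : a = b := σ.injective (h2.trans h3.symm)
  have : Nb G a a a = {a} := Set.eq_singleton_iff_unique_mem.2 ⟨⟨1, one_mem _, rfl, rfl⟩, fun _ ⟨_, _, h, e⟩ => e ▸ h⟩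
  exact R.k1.ne' (by rw [← R.hb, this, Set.ncard_singleton])

theorem disj (R : R3 G a b c k l) {x y : Ω} (h : y ∈ Nb G a b x) : y ∉ Nb G a c x := fun h' => by
  obtain ⟨σ, h1, rfl⟩ := R.tr x
  obtain ⟨y, rfl⟩ := σ.surjective y
  rw [mem_Nb_smul h1] at h h'
  exact R.ne (by rw [← R.hb, ← R.hc, ← Nb_congr h, ← Nb_congr h'])

theorem cover (R : R3 G a b c k l) (x y : Ω) : y = x ∨ y ∈ Nb G a b x ∨ y ∈ Nb G a c x := by
  have : insert x (Nb G a b x ∪ Nb G a c x) = Set.univ := (Set.eq_univ_iff_ncard _).2 (by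
    rw [Set.ncard_insert_of_notMem (fun h => h.elim (R.irrefl x) (R.swap.irrefl x)),
      Set.ncard_union_eq (Set.disjoint_left.2 fun _ => R.disj), R.ncard, R.swap.ncard, R.card]; ring)
  exact this.ge (Set.mem_univ y)

theorem card_stab (R : R3 G a b c k l) (x : Ω) :
    Nat.card G = (1 + k + l) * Nat.card (G ⊓ stabilizer (Perm Ω) x : Subgroup _) := by
  rw [← Nat.card_congr (orbitProdStabilizerEquivGroup G x), Nat.card_prod, ← R.card]
  congr 1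
  · obtain ⟨τ, h, rfl⟩ := R.tr x
    rw [show orbit G (τ a) = Set.univ from Set.eq_univ_of_forall fun y => (R.tr y).elim fun σ e =>
      ⟨⟨σ * τ⁻¹, mul_mem e.1 (inv_mem h)⟩, by simpa using e.2⟩, Nat.card_univ]
  · exact Nat.card_congr ⟨fun σ => ⟨σ.1.1, σ.1.2, σ.2⟩, fun σ => ⟨⟨σ.1, σ.2.1⟩, σ.2.2⟩, fun _ => rfl, fun _ => rfl⟩

theorem symm (R : R3 G a b c k l) {x y : Ω} (h : y ∈ Nb G a b x) : x ∈ Nb G a b y := by
  obtain ⟨σ, h1, rfl, rfl⟩ := h
  rw [mem_Nb_smul h1]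
  rcases R.cover b a with h | h | ⟨τ, h2, h3, h4⟩
  · exact absurd ⟨1, one_mem _, rfl, h.symm⟩ (R.irrefl a)
  · exact h
  · have e1 := card_orb (G := G) a b
    have e2 := card_orb (G := G) b a
    have e3 : Nb G b a b = τ • Nb G a c a := by
      rw [← Nb_smul h2, show τ • a = b from h3]
      exact Set.ext fun y => ⟨fun ⟨ρ, h5, h6, h7⟩ => ⟨ρ * τ, mul_mem h5 h2, by simpa [h3] using h6, by simpa [h4] using h7⟩,
        fun ⟨ρ, h5, h6, h7⟩ => ⟨ρ * τ⁻¹, mul_mem h5 (inv_mem h2), by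
          rw [Perm.mul_apply, Perm.inv_eq_iff_eq.2 h3.symm, h6], by
          rw [Perm.mul_apply, Perm.inv_eq_iff_eq.2 h4.symm, h7]⟩⟩
    have e4 := (R.card_stab a).symm.trans (R.card_stab b)
    rw [e3, Set.ncard_smul_set, R.hc, inf_right_comm] at e2
    rw [e1, e2, R.hb] at e4
    exact absurd (Nat.eq_of_mul_eq_mul_right Nat.card_pos (Nat.eq_of_mul_eq_mul_left (by omega) e4)) R.ne

theorem inter (σ : Perm Ω) (h : σ ∈ G) (x y : Ω) :
    (Nb G a b (σ x) ∩ Nb G a b (σ y)).ncard = (Nb G a b x ∩ Nb G a b y).ncard := by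
  rw [show Nb G a b (σ x) = _ from Nb_smul h x, show Nb G a b (σ y) = _ from Nb_smul h y, ← Set.smul_set_inter,
    Set.ncard_smul_set]

theorem count (R : R3 G a b c k l) :
    k * (k - 1 - (Nb G a b b ∩ Nb G a b a).ncard) = l * (Nb G a b c ∩ Nb G a b a).ncard := by
  classical
  have := Finset.card_mul_eq_card_mul (s := (Nb G a b a).toFinite.toFinset) (t := (Nb G a c a).toFinite.toFinset)
    (fun x y => y ∈ Nb G a b x) (m := k - 1 - (Nb G a b b ∩ Nb G a b a).ncard)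
    (n := (Nb G a b c ∩ Nb G a b a).ncard) (fun x hx => ?_) fun y hy => ?_
  · rwa [← Set.ncard_eq_toFinset_card, ← Set.ncard_eq_toFinset_card, R.hb, R.hc] at this
  · rw [Set.Finite.mem_toFinset] at hx
    have h1 : Nb G a b x = insert a ((Nb G a b x ∩ Nb G a b a) ∪ (Nb G a b x ∩ Nb G a c a)) := Set.ext fun y =>
      ⟨fun h => (R.cover a y).imp_right (Or.imp (fun e => ⟨h, e⟩) fun e => ⟨h, e⟩),
        fun h => h.elim (fun e => e ▸ R.symm hx) fun h => h.elim And.left And.left⟩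
    have h2 := congrArg Set.ncard h1
    rw [Set.ncard_insert_of_notMem (fun h => h.elim (fun h => R.irrefl a h.2) fun h => R.swap.irrefl a h.2),
      Set.ncard_union_eq (Set.disjoint_left.2 fun _ h h' => R.disj h.2 h'.2), R.ncard] at h2
    obtain ⟨σ, h3, h4, rfl⟩ := hx
    have h5 := inter (a := a) (b := b) σ h3 b a
    rw [h4] at h5
    rw [← Set.ncard_coe_finset, show ((Finset.bipartiteAbove (fun x y => y ∈ Nb G a b x)
      (Nb G a c a).toFinite.toFinset (σ b) : Finset Ω) : Set Ω) = Nb G a b (σ b) ∩ Nb G a c a by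
        ext; simp [and_comm]]
    omega
  · rw [Set.Finite.mem_toFinset] at hy
    obtain ⟨σ, h3, h4, rfl⟩ := hy
    have h5 := inter (a := a) (b := b) σ h3 c a
    rw [h4] at h5
    rw [← h5, ← Set.ncard_coe_finset]
    exact congrArg _ (Set.ext fun x => by
      simp only [Finset.coe_bipartiteBelow, Set.Finite.mem_toFinset, Set.mem_ofPred_eq, Set.mem_inter_iff]
      exact ⟨fun h => ⟨R.symm h.2, h.1⟩, fun h => ⟨h.2, R.symm h.1⟩⟩)

theorem dvd (R : R3 G a b c k l) (h : (Nb G a b b ∩ Nb G a b a).ncard = k - 1) : k + 1 ∣ 1 + k + l := by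
  have hb : b ∈ Nb G a b a := ⟨1, one_mem _, rfl, rfl⟩
  have h0 : ∀ x, (insert x (Nb G a b x)).ncard = k + 1 := fun x => by
    rw [Set.ncard_insert_of_notMem (R.irrefl x), R.ncard]
  have h1 : Nb G a b b ∩ Nb G a b a = Nb G a b a \ {b} := Set.eq_of_subset_of_ncard_le
    (fun y hy => ⟨hy.2, fun e => R.irrefl b (e ▸ hy.1)⟩) (by rw [h, Set.ncard_sdiff_singleton_of_mem hb, R.hb])
  have h2 : insert a (Nb G a b a) = insert b (Nb G a b b) := Set.eq_of_subset_of_ncard_le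
    (Set.insert_subset (Or.inr (R.symm hb)) fun y hy => (em (y = b)).imp_right fun e => (h1.ge ⟨hy, e⟩).1)
    (by rw [h0, h0])
  have h3 : ∀ x y, y ∈ insert x (Nb G a b x) → insert x (Nb G a b x) = insert y (Nb G a b y) := by
    rintro x y (rfl | ⟨σ, h, rfl, rfl⟩)
    · rfl
    · rw [show Nb G a b (σ a) = _ from Nb_smul h a, show Nb G a b (σ b) = _ from Nb_smul h b]
      exact (Set.smul_set_insert σ a _).symm.trans ((congrArg _ h2).trans (Set.smul_set_insert σ b _))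
  have : IsPretransitive G Ω := ⟨fun x y => (R.tr x).elim fun σ h => (R.tr y).elim fun τ h' =>
    ⟨⟨τ * σ⁻¹, mul_mem h'.1 (inv_mem h.1)⟩, by simp [← h.2, h'.2]⟩⟩
  rw [← h0 a, ← R.card]
  refine IsBlock.ncard_dvd_card (G := G) (isBlock_iff_smul_eq_of_nonempty.2 fun {σ} ⟨y, h4, h5⟩ => ?_)
    (Set.insert_nonempty _ _)
  have h6 : σ • insert a (Nb G a b a) = insert (σ.1 a) (Nb G a b (σ.1 a)) :=
    (Set.smul_set_insert σ.1 a _).trans (congrArg _ (Nb_smul σ.2 a).symm)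
  rw [h6] at h4 ⊢
  exact (h3 _ _ h4).trans (h3 _ _ h5).symm

end R3

theorem exists_map {H Ω₀ : Type*} [Group H] (ψ : H →* Perm Ω) (ψ₀ : H →* Perm Ω₀) {x : Ω} {x₀ : Ω₀}
    (h : ∀ u, ψ₀ u x₀ = x₀ → ψ u x = x) : ∃ f : Ω₀ → Ω, ∀ u, f (ψ₀ u x₀) = ψ u x := by
  classical
  refine ⟨fun y => if e : ∃ u, ψ₀ u x₀ = y then ψ e.choose x else x, fun u => ?_⟩
  have e : ∃ v, ψ₀ v x₀ = ψ₀ u x₀ := ⟨u, rfl⟩
  have := h (u⁻¹ * e.choose) (by rw [map_mul, Perm.mul_apply, e.choose_spec]; simp)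
  simp only [dif_pos e]
  rwa [map_mul, Perm.mul_apply, map_inv, Perm.inv_eq_iff_eq] at this

theorem eq_of_card_le {P : Type*} [Group P] {A G₀ G₁ : Subgroup P} [Finite A] [IsSimpleGroup G₀] (h0 : G₀ ≤ A)
    (h1 : G₁ ≤ A) (hc : Nat.card G₁ = Nat.card G₀) (hA : Nat.card A ≤ 2 * Nat.card G₀) (h2 : 2 < Nat.card G₀) :
    G₁ = G₀ := by
  have : Finite G₁ := Finite.of_injective _ (inclusion_injective h1)
  have e := (G₁.subgroupOf A).index_mul_card
  rw [Nat.card_congr (subgroupOfEquivOfLe h1).toEquiv, hc] at e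
  have hi : (G₁.subgroupOf A).index ≤ 2 := Nat.le_of_mul_le_mul_right (e ▸ hA) (by omega)
  have hn : (G₁.subgroupOf A).Normal := by
    have : (G₁.subgroupOf A).index ≠ 0 := index_ne_zero_of_finite
    rcases (by omega : (G₁.subgroupOf A).index = 1 ∨ (G₁.subgroupOf A).index = 2) with h | h
    exacts [normal_of_index_eq_one h, normal_of_index_eq_two h]
  rcases (hn.comap (inclusion h0)).eq_bot_or_eq_top with h | h
  · have := index_comap (G₁.subgroupOf A) (inclusion h0)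
    rw [h, index_bot] at this
    have := Nat.le_of_dvd (Nat.pos_of_ne_zero index_ne_zero_of_finite)
      (relIndex_dvd_index_of_normal (G₁.subgroupOf A) (inclusion h0).range)
    omega
  · exact (eq_of_le_of_card_ge (H := G₀) (K := G₁) (fun x hx => h.ge (mem_top (⟨x, hx⟩ : G₀))) hc.le).symm

end CfsgLib.Rank3
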