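import Mathlib
import Cfsg.Agent.Lib.Rank3.Graph

/-!
# Recognition of a rank 3 group from facts about a model
-/

set_option autoImplicit false
set_option linter.unusedSectionVars false

namespace CfsgLib.Rank3

open MulAction Subgroup Equiv
open scoped Pointwise

variable {Ω Ω₀ : Type*} {G : Subgroup (Perm Ω)} {G₀ : Subgroup (Perm Ω₀)} {a b c : Ω} {a₀ b₀ c₀ : Ω₀} {k l : ℕ}

/-- point stabiliser -/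
abbrev St (G : Subgroup (Perm Ω)) (a : Ω) : Subgroup (Perm Ω) := G ⊓ stabilizer (Perm Ω) a

/-- an isomorphism of the point stabilisers -/
structure Hom (G : Subgroup (Perm Ω)) (a : Ω) {H : Type*} [Group H] (ψ : H →* Perm Ω) : Prop where
  inj : Function.Injective ψ
  range : ψ.range = St G a

section
variable {H : Type*} [Group H] {ψ : H →* Perm Ω}

theorem Hom.mem (h : Hom G a ψ) (u : H) : ψ u ∈ G := (h.range.le ⟨u, rfl⟩).1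

theorem Hom.fix (h : Hom G a ψ) (u : H) : ψ u a = a := (h.range.le ⟨u, rfl⟩).2

theorem Hom.mem_Nb (h : Hom G a ψ) {x y : Ω} : y ∈ Nb G a x a ↔ ∃ u, ψ u x = y :=
  ⟨fun ⟨_, h1, h2, h3⟩ => (h.range.ge ⟨h1, h2⟩).imp fun _ (e : ψ _ = _) => by rw [e, h3], fun ⟨u, e⟩ => ⟨_, h.mem u, h.fix u, e⟩⟩

theorem Hom.smul_mem (h : Hom G a ψ) (u : H) {x y : Ω} : ψ u y ∈ Nb G a x a ↔ y ∈ Nb G a x a :=
  (by rw [h.fix] : ψ u y ∈ Nb G a x a ↔ ψ u y ∈ Nb G a x (ψ u a)).trans (mem_Nb_smul (h.mem u))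

theorem Hom.card [Finite Ω] (h : Hom G a ψ) (y : Ω) :
    (Nb G a y a).ncard * Nat.card ((stabilizer (Perm Ω) y).comap ψ) = Nat.card H := by
  rw [← card_map_of_injective h.inj, map_comap_eq, h.range, ← card_orb, ← show ψ.range = G ⊓ _ from h.range]
  exact (Nat.card_congr (MonoidHom.ofInjective h.inj).toEquiv).symm

theorem hom_self : Hom G₀ a₀ (St G₀ a₀).subtype := ⟨subtype_injective _, range_subtype _⟩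

theorem St.smul_mem (u : St G a) {x y : Ω} : u.1 y ∈ Nb G a x a ↔ y ∈ Nb G a x a := hom_self.smul_mem u

theorem St.mem_Nb {x y : Ω} (h : y ∈ Nb G a x a) : ∃ u : St G a, u.1 x = y := hom_self.mem_Nb.1 h

theorem Hom.inv_apply (_ : Hom G a ψ) (u : H) (x : Ω) : ψ u⁻¹ (ψ u x) = x := by simp

end

variable [Finite Ω] [Finite Ω₀] {ψ : St G₀ a₀ →* Perm Ω}

/-- an equivariant bijection of suborbits -/
structure Eqv (G : Subgroup (Perm Ω)) (a b : Ω) (b₀ : Ω₀) (ψ : St G₀ a₀ →* Perm Ω) (f : Ω₀ → Ω) : Prop where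
  eqv : ∀ u, ∀ x ∈ Nb G₀ a₀ b₀ a₀, f (u.1 x) = ψ u (f x)
  bij : Set.BijOn f (Nb G₀ a₀ b₀ a₀) (Nb G a b a)

theorem exists_eqv (h : Hom G a ψ) (hk : (Nb G a b a).ncard = (Nb G₀ a₀ b₀ a₀).ncard)
    (hs : ∀ u, ψ u b = b → u.1 b₀ = b₀) : ∃ f, f b₀ = b ∧ Eqv G a b b₀ ψ f := by
  have h1 : (stabilizer (Perm Ω) b).comap ψ = (stabilizer (Perm Ω₀) b₀).comap (St G₀ a₀).subtype :=
    eq_of_le_of_card_ge hs (Nat.eq_of_mul_eq_mul_left ((Set.ncard_pos (Set.toFinite (Nb G₀ a₀ b₀ a₀))).2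
      ⟨b₀, 1, one_mem _, rfl, rfl⟩) ((hom_self.card b₀).trans (hk ▸ h.card b).symm)).le
  obtain ⟨f, hf⟩ := exists_map ψ (St G₀ a₀).subtype (x := b) (x₀ := b₀) fun u hu => h1.ge hu
  refine ⟨f, by simpa using hf 1, fun u x hx => ?_, fun x hx => ?_, fun x hx y hy e => ?_, fun y hy => ?_⟩
  · obtain ⟨v, rfl⟩ := hom_self.mem_Nb.1 hx
    rw [hf, ← Perm.mul_apply, ← Perm.mul_apply, ← map_mul, ← hf]
    rfl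
  · obtain ⟨v, rfl⟩ := hom_self.mem_Nb.1 hx
    exact h.mem_Nb.2 ⟨v, (hf v).symm⟩
  · obtain ⟨v, rfl⟩ := hom_self.mem_Nb.1 hx
    obtain ⟨w, rfl⟩ := hom_self.mem_Nb.1 hy
    rw [hf, hf] at e
    have := hs (w⁻¹ * v) (by rw [map_mul, Perm.mul_apply, e, h.inv_apply])
    exact Perm.inv_eq_iff_eq.1 this
  · obtain ⟨v, rfl⟩ := h.mem_Nb.1 hy
    exact ⟨_, hom_self.mem_Nb.2 ⟨v, rfl⟩, hf v⟩

theorem Eqv.ncard {f : Ω₀ → Ω} (e : Eqv G a b b₀ ψ f) (S : Set Ω) :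
    (f ⁻¹' S ∩ Nb G₀ a₀ b₀ a₀).ncard = (S ∩ Nb G a b a).ncard := by
  rw [← e.bij.image_eq, ← Set.image_preimage_inter, (e.bij.injOn.mono Set.inter_subset_right).ncard_image]

/-- the local graphs agree -/
structure Loc (G : Subgroup (Perm Ω)) (a b : Ω) (b₀ : Ω₀) (ψ : St G₀ a₀ →* Perm Ω) (f : Ω₀ → Ω) : Prop where
  hom : Hom G a ψ
  eqv : Eqv G a b b₀ ψ f
  adj : ∀ x ∈ Nb G₀ a₀ b₀ a₀, ∀ y ∈ Nb G₀ a₀ b₀ a₀, f y ∈ Nb G a b (f x) ↔ y ∈ Nb G₀ a₀ b₀ x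

theorem R3.congr (R : R3 G a b c k l) {b' : Ω} (h : b' ∈ Nb G a b a) : R3 G a b' c k l :=
  ⟨R.tr, Nb_congr h ▸ R.hb, R.hc, R.card, R.ne, R.k1, R.l1⟩

theorem exists_loc (R : R3 G a b c k l) (R₀ : R3 G₀ a₀ b₀ c₀ k l) (h : Hom G a ψ) (hd : ¬ k + 1 ∣ 1 + k + l)
    (HK : ∀ K : Subgroup (St G₀ a₀), k * Nat.card K = Nat.card (St G₀ a₀) →
      ∃ x ∈ Nb G₀ a₀ b₀ a₀, ∀ u ∈ K, u.1 x = x)
    (H1 : ∀ X ⊆ Nb G₀ a₀ b₀ a₀, (∀ u ∈ St G₀ a₀, u b₀ = b₀ → ∀ x ∈ X, u x ∈ X) → b₀ ∉ X →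
      l ∣ k * (k - 1 - X.ncard) → X = Nb G₀ a₀ b₀ b₀ ∩ Nb G₀ a₀ b₀ a₀ ∨ X.ncard = k - 1) :
    ∃ f, Loc G a b b₀ ψ f := by
  obtain ⟨x, hx, h1⟩ := HK _ (R.hb ▸ h.card b)
  obtain ⟨v, rfl⟩ := hom_self.mem_Nb.1 hx
  have h2 : ψ v⁻¹ b ∈ Nb G a b a := h.mem_Nb.2 ⟨_, rfl⟩
  obtain ⟨f, e0, e⟩ := exists_eqv (b := ψ v⁻¹ b) (b₀ := b₀) h (by rw [Nb_congr h2, R.hb, R₀.hb]) fun u hu =>
    v.1.injective (by simpa using h1 (v * u * v⁻¹) (show ψ _ b = b by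
      rw [map_mul, map_mul, Perm.mul_apply, Perm.mul_apply, hu]; simp))
  have R' := R.congr h2
  have h3 := e.ncard (Nb G a b (f b₀))
  have hb : b₀ ∈ Nb G₀ a₀ b₀ a₀ := ⟨1, one_mem _, rfl, rfl⟩
  have h4 := (H1 (f ⁻¹' Nb G a b (f b₀) ∩ Nb G₀ a₀ b₀ a₀) Set.inter_subset_right (fun u hu h5 x hx =>
    ⟨by
      rw [Set.mem_preimage, ← h5, e.eqv ⟨u, hu⟩ _ hx.2, e.eqv ⟨u, hu⟩ _ hb]
      exact (mem_Nb_smul (h.mem _)).2 hx.1, (hom_self.smul_mem ⟨u, hu⟩).2 hx.2⟩) (fun h5 => R.irrefl _ h5.1)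
    (by rw [h3, e0, ← Nb_congr h2, R'.count]; exact dvd_mul_right _ _)).resolve_right fun h5 =>
      hd (R'.dvd (by rwa [h3, e0, ← Nb_congr h2] at h5))
  refine ⟨f, h, ⟨e.eqv, Nb_congr h2 ▸ e.bij⟩, fun x hx y hy => ?_⟩
  obtain ⟨u, rfl⟩ := St.mem_Nb hx
  obtain ⟨y, rfl⟩ := u.1.surjective y
  have hy' := (St.smul_mem u).1 hy
  rw [e.eqv u y hy', e.eqv u b₀ hb, mem_Nb_smul (h.mem u)]
  exact ((and_iff_left hy').symm.trans (Set.ext_iff.1 h4 y)).trans ((and_iff_left hy').trans (mem_Nb_smul u.2.1).symm)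

/-- an automorphism of the stabiliser induced by an automorphism of the local graph -/
structure Tw (b₀ : Ω₀) (α : St G₀ a₀ ≃* St G₀ a₀) (σ : Perm Ω₀) : Prop where
  eqv : ∀ u, ∀ x ∈ Nb G₀ a₀ b₀ a₀, σ (u.1 x) = (α u).1 (σ x)
  mem : ∀ x, σ x ∈ Nb G₀ a₀ b₀ a₀ ↔ x ∈ Nb G₀ a₀ b₀ a₀
  adj : ∀ x ∈ Nb G₀ a₀ b₀ a₀, ∀ y ∈ Nb G₀ a₀ b₀ a₀, σ y ∈ Nb G₀ a₀ b₀ (σ x) ↔ y ∈ Nb G₀ a₀ b₀ x

theorem Tw.refl : Tw b₀ (MulEquiv.refl (St G₀ a₀)) 1 := ⟨fun _ _ _ => rfl, fun _ => Iff.rfl, fun _ _ _ _ => Iff.rfl⟩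

theorem Tw.trans {α β : St G₀ a₀ ≃* St G₀ a₀} {σ τ : Perm Ω₀} (h : Tw b₀ α σ) (h' : Tw b₀ β τ) :
    Tw b₀ (α.trans β) (τ * σ) :=
  ⟨fun u x hx => (congrArg τ (h.eqv u x hx)).trans (h'.eqv _ _ ((h.mem x).2 hx)),
    fun x => (h'.mem _).trans (h.mem x),
    fun x hx y hy => (h'.adj _ ((h.mem x).2 hx) _ ((h.mem y).2 hy)).trans (h.adj x hx y hy)⟩

theorem Loc.twist {f : Ω₀ → Ω} (L : Loc G a b b₀ ψ f) {α : St G₀ a₀ ≃* St G₀ a₀} {σ : Perm Ω₀} (T : Tw b₀ α σ) :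
    Loc G a b b₀ (ψ.comp α.symm.toMonoidHom) (f ∘ σ.symm) := by
  have h1 : ∀ x ∈ Nb G₀ a₀ b₀ a₀, σ.symm x ∈ Nb G₀ a₀ b₀ a₀ := fun x hx => (T.mem _).1 (by simpa using hx)
  refine ⟨⟨L.hom.inj.comp α.symm.injective, ?_⟩, ⟨fun u x hx => ?_, L.eqv.bij.comp
    ⟨h1, σ.symm.injective.injOn, fun x hx => ⟨σ x, (T.mem x).2 hx, by simp⟩⟩⟩, fun x hx y hy => ?_⟩
  · rw [MonoidHom.range_comp, MonoidHom.range_eq_top.2 α.symm.surjective, ← MonoidHom.range_eq_map, L.hom.range]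
  · have := T.eqv (α.symm u) _ (h1 x hx)
    rw [α.apply_symm_apply, σ.apply_symm_apply, ← σ.eq_symm_apply] at this
    rw [Function.comp_apply, ← this]
    exact L.eqv.eqv _ _ (h1 x hx)
  · exact (L.adj _ (h1 x hx) _ (h1 y hy)).trans ((T.adj _ (h1 x hx) _ (h1 y hy)).symm.trans (by simp))

theorem Loc.lam {f : Ω₀ → Ω} (L : Loc G a b b₀ ψ f) {x : Ω₀} (hx : x ∈ Nb G₀ a₀ b₀ a₀) (S : Set Ω) :
    (Nb G₀ a₀ b₀ x ∩ (f ⁻¹' S ∩ Nb G₀ a₀ b₀ a₀)).ncard = (Nb G a b (f x) ∩ S ∩ Nb G a b a).ncard := by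
  rw [← L.eqv.ncard]
  exact congrArg _ (Set.ext fun y => ⟨fun h => ⟨⟨(L.adj x hx y h.2.2).2 h.1, h.2.1⟩, h.2.2⟩,
    fun h => ⟨(L.adj x hx y h.2).1 h.1.1, h.1.2, h.2⟩⟩)

theorem R3.adj_count (_ : R3 G a b c k l) {x y : Ω} (h : y ∈ Nb G a b x) :
    (Nb G a b y ∩ Nb G a b x).ncard = (Nb G a b b ∩ Nb G a b a).ncard := by
  obtain ⟨σ, h, rfl, rfl⟩ := h
  exact R3.inter σ h b a

theorem R3.non_count (R : R3 G a b c k l) {x y : Ω} (h : y ∉ Nb G a b x) (h' : y ≠ x) :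
    (Nb G a b y ∩ Nb G a b x).ncard = (Nb G a b c ∩ Nb G a b a).ncard := by
  obtain ⟨σ, h1, rfl, rfl⟩ := ((R.cover x y).resolve_left h').resolve_left h
  exact R3.inter σ h1 c a

theorem Loc.counts (R : R3 G a b c k l) (R₀ : R3 G₀ a₀ b₀ c₀ k l) {f : Ω₀ → Ω} (L : Loc G a b b₀ ψ f) :
    (Nb G a b b ∩ Nb G a b a).ncard = (Nb G₀ a₀ b₀ b₀ ∩ Nb G₀ a₀ b₀ a₀).ncard ∧
      (Nb G a b c ∩ Nb G a b a).ncard = (Nb G₀ a₀ b₀ c₀ ∩ Nb G₀ a₀ b₀ a₀).ncard := by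
  have hb : b₀ ∈ Nb G₀ a₀ b₀ a₀ := ⟨1, one_mem _, rfl, rfl⟩
  have h1 := L.lam hb Set.univ
  rw [Set.preimage_univ, Set.univ_inter, Set.inter_univ, R.adj_count (L.eqv.bij.mapsTo hb)] at h1
  exact ⟨h1.symm, Nat.eq_of_mul_eq_mul_left (zero_lt_one.trans R.l1) (by rw [← R.count, ← R₀.count, h1])⟩

theorem exists_loc2 (R : R3 G a b c k l) (R₀ : R3 G₀ a₀ b₀ c₀ k l) {f : Ω₀ → Ω} (L : Loc G a b b₀ ψ f)
    (HL : ∀ K : Subgroup (St G₀ a₀), l * Nat.card K = Nat.card (St G₀ a₀) → ∀ M ⊆ Nb G₀ a₀ b₀ a₀,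
      (∀ u ∈ K, ∀ x ∈ M, u.1 x ∈ M) → M.ncard = (Nb G₀ a₀ b₀ c₀ ∩ Nb G₀ a₀ b₀ a₀).ncard →
      (∀ x ∈ M, ∃ z ∈ Nb G₀ a₀ b₀ a₀, z ≠ b₀ ∧ z ∉ Nb G₀ a₀ b₀ b₀ ∧
        (Nb G₀ a₀ b₀ x ∩ M).ncard = (Nb G₀ a₀ b₀ z ∩ (Nb G₀ a₀ b₀ b₀ ∩ Nb G₀ a₀ b₀ a₀)).ncard) →
      ∃ (α : St G₀ a₀ ≃* St G₀ a₀) (σ : Perm Ω₀), Tw b₀ α σ ∧
        ∃ y ∈ Nb G₀ a₀ c₀ a₀, σ • M = Nb G₀ a₀ b₀ y ∩ Nb G₀ a₀ b₀ a₀) :
    ∃ (ψ : St G₀ a₀ →* Perm Ω) (f : Ω₀ → Ω), Loc G a b b₀ ψ f ∧ ∃ c' ∈ Nb G a c a,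
      ∀ x ∈ Nb G₀ a₀ b₀ a₀, f x ∈ Nb G a b c' ↔ x ∈ Nb G₀ a₀ b₀ c₀ := by
  have hb : b₀ ∈ Nb G₀ a₀ b₀ a₀ := ⟨1, one_mem _, rfl, rfl⟩
  have hc : c ∈ Nb G a c a := ⟨1, one_mem _, rfl, rfl⟩
  obtain ⟨α, σ, T, y, hy, e⟩ := HL _ (R.hc ▸ L.hom.card c) (f ⁻¹' Nb G a b c ∩ Nb G₀ a₀ b₀ a₀)
    Set.inter_subset_right (fun u hu x hx => ⟨by
      rw [Set.mem_preimage, L.eqv.eqv u x hx.2, ← (hu : ψ u c = c)]
      exact (mem_Nb_smul (L.hom.mem u)).2 hx.1, (St.smul_mem u).2 hx.2⟩)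
    ((L.eqv.ncard _).trans (L.counts R R₀).2) fun x hx => by
      have h1 := L.eqv.bij.mapsTo hb
      obtain ⟨τ, h2, h3, h4⟩ := (Nb_congr h1).symm ▸ R.symm (L.eqv.bij.mapsTo hx.2)
      obtain ⟨z, rfl⟩ := τ.surjective c
      obtain ⟨z, hz, rfl⟩ := L.eqv.bij.surjOn ((mem_Nb_smul h2).1 (h3.symm ▸ R.symm hx.1))
      refine ⟨z, hz, fun e => R.swap.irrefl a (by rw [e, h4] at hc ⊢; exact hc), fun h5 => R.disj ?_ hc, ?_⟩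
      · have h6 := (mem_Nb_smul h2).2 ((L.adj _ hb _ hz).2 h5)
        rwa [h4] at h6
      · rw [show Nb G₀ a₀ b₀ b₀ ∩ Nb G₀ a₀ b₀ a₀ = f ⁻¹' Nb G a b (f b₀) ∩ Nb G₀ a₀ b₀ a₀ from
          Set.ext fun y => and_congr_left fun h => (L.adj _ hb _ h).symm, L.lam hx.2, L.lam hz,
          ← Set.ncard_smul_set τ (_ ∩ Nb G a b (f b₀) ∩ _), Set.smul_set_inter, Set.smul_set_inter, ← Nb_smul h2, ← Nb_smul h2, ← Nb_smul h2,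
          show τ • a = f x from h3, show τ • f b₀ = a from h4, Set.inter_right_comm, Set.inter_comm (Nb G a b (f x)),
          Set.inter_right_comm, Set.inter_comm (Nb G a b a)]
        rfl
  have L' := L.twist T
  obtain ⟨v, rfl⟩ := St.mem_Nb hy
  refine ⟨_, _, L', _, (L'.hom.smul_mem v⁻¹).2 hc, fun x hx => ?_⟩
  have h1 := (St.smul_mem v).2 hx
  have h2 := Set.ext_iff.1 e (v.1 x)
  rw [Set.mem_smul_set_iff_inv_smul_mem, Set.mem_inter_iff, Set.mem_inter_iff, and_iff_left h1,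
    and_iff_left ((T.mem _).1 (by simpa using h1))] at h2
  rw [← mem_Nb_smul (L'.hom.mem v), ← L'.eqv.eqv v x hx, map_inv, Perm.coe_inv, Equiv.apply_symm_apply]
  exact h2.trans (mem_Nb_smul v.2.1)

/-- a candidate for the graph -/
structure Cand (G₀ : Subgroup (Perm Ω₀)) (a₀ b₀ c₀ : Ω₀) (k : ℕ) (N : Ω₀ → Set Ω₀) : Prop where
  inv : ∀ u ∈ St G₀ a₀, ∀ x y, u y ∈ N (u x) ↔ y ∈ N x
  irrefl : ∀ x, x ∉ N x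
  symm : ∀ x y, y ∈ N x → x ∈ N y
  card : ∀ x, (N x).ncard = k
  ha : N a₀ = Nb G₀ a₀ b₀ a₀
  hb : N b₀ = Nb G₀ a₀ b₀ b₀
  hc : ∀ x ∈ Nb G₀ a₀ b₀ a₀, x ∈ N c₀ ↔ x ∈ Nb G₀ a₀ b₀ c₀
  adj : ∀ x y, y ∈ N x → (N y ∩ N x).ncard = (Nb G₀ a₀ b₀ b₀ ∩ Nb G₀ a₀ b₀ a₀).ncard
  non : ∀ x y, y ∉ N x → y ≠ x → (N y ∩ N x).ncard = (Nb G₀ a₀ b₀ c₀ ∩ Nb G₀ a₀ b₀ a₀).ncard

theorem exists_graph_iso (R : R3 G a b c k l) (R₀ : R3 G₀ a₀ b₀ c₀ k l) {f : Ω₀ → Ω} (L : Loc G a b b₀ ψ f) {c' : Ω}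
    (hc' : c' ∈ Nb G a c a) (h : ∀ x ∈ Nb G₀ a₀ b₀ a₀, f x ∈ Nb G a b c' ↔ x ∈ Nb G₀ a₀ b₀ c₀)
    (hinj : ∀ y ∈ Nb G₀ a₀ c₀ a₀, (∀ x ∈ Nb G₀ a₀ b₀ a₀, x ∈ Nb G₀ a₀ b₀ c₀ → x ∈ Nb G₀ a₀ b₀ y) → y = c₀)
    (H2 : ∀ N, Cand G₀ a₀ b₀ c₀ k N → N c₀ = Nb G₀ a₀ b₀ c₀) :
    ∃ F : Ω₀ ≃ Ω, ∀ x y, F y ∈ Nb G a b (F x) ↔ y ∈ Nb G₀ a₀ b₀ x := by
  classical
  obtain ⟨f', e0, e⟩ := exists_eqv (b := c') (b₀ := c₀) L.hom (by rw [Nb_congr hc', R.hc, R₀.hc]) fun u hu =>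
    hinj _ (hom_self.mem_Nb.2 ⟨u, rfl⟩) fun x hx h1 => by
      obtain ⟨x, rfl⟩ := u.1.surjective x
      have h2 := (St.smul_mem u).1 hx
      rw [← h _ hx, L.eqv.eqv u x h2, ← hu, mem_Nb_smul (L.hom.mem u), h x h2] at h1
      exact (mem_Nb_smul u.2.1).2 h1
  let F : Ω₀ → Ω := fun x => if x ∈ Nb G₀ a₀ b₀ a₀ then f x else if x ∈ Nb G₀ a₀ c₀ a₀ then f' x else a
  have ha : F a₀ = a := (if_neg (R₀.irrefl _)).trans (if_neg (R₀.swap.irrefl _))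
  have hb : ∀ x ∈ Nb G₀ a₀ b₀ a₀, F x = f x := fun x hx => if_pos hx
  have hc : ∀ x ∈ Nb G₀ a₀ c₀ a₀, F x = f' x := fun x hx => (if_neg fun h => R₀.disj h hx).trans (if_pos hx)
  have hF : ∀ (u : St G₀ a₀) x, F (u.1 x) = ψ u (F x) := fun u x => by
    rcases R₀.cover a₀ x with rfl | hx | hx
    · rw [show u.1 x = x from u.2.2, ha, L.hom.fix]
    · rw [hb _ ((St.smul_mem u).2 hx), hb _ hx, L.eqv.eqv u x hx]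
    · rw [hc _ ((St.smul_mem u).2 hx), hc _ hx, e.eqv u x hx]
  have hs : Function.Surjective F := fun y => by
    rcases R.cover a y with rfl | hy | hy
    · exact ⟨a₀, ha⟩
    · exact (L.eqv.bij.surjOn hy).imp fun x hx => (hb x hx.1).trans hx.2
    · exact (e.bij.surjOn (Nb_congr hc' ▸ hy)).imp fun x hx => (hc x hx.1).trans hx.2
  let Φ := Equiv.ofBijective F (hs.bijective_of_nat_card_le (R₀.card.trans R.card.symm).le)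
  have h0 : ∀ S : Set Ω, (F ⁻¹' S).ncard = S.ncard := fun S =>
    Set.ncard_preimage_of_injective_subset_range Φ.injective (hs.range_eq ▸ Set.subset_univ _)
  have h1 : ∀ (u : St G₀ a₀) x y, F (u.1 y) ∈ Nb G a b (F (u.1 x)) ↔ F y ∈ Nb G a b (F x) := fun u x y => by
    rw [hF, hF, mem_Nb_smul (L.hom.mem u)]
  have h2 : ∀ y, F y ∈ Nb G a b (F a₀) ↔ y ∈ Nb G₀ a₀ b₀ a₀ := fun y => by
    rw [ha]
    exact ⟨fun h => (L.eqv.bij.surjOn h).elim fun x hx =>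
      (Φ.injective ((hb x hx.1).trans hx.2 : F x = F y) : x = y) ▸ hx.1, fun h => hb y h ▸ L.eqv.bij.mapsTo h⟩
  have hb₀ : b₀ ∈ Nb G₀ a₀ b₀ a₀ := ⟨1, one_mem _, rfl, rfl⟩
  have h3 : ∀ x ∈ Nb G₀ a₀ b₀ a₀, F x ∈ Nb G a b (F c₀) ↔ x ∈ Nb G₀ a₀ b₀ c₀ := fun x hx => by
    rw [hb x hx, hc c₀ ⟨1, one_mem _, rfl, rfl⟩, e0, h x hx]
  have h4 : ∀ y, F y ∈ Nb G a b (F b₀) ↔ y ∈ Nb G₀ a₀ b₀ b₀ := fun y => by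
    rcases R₀.cover a₀ y with rfl | hy | hy
    · exact iff_of_true (R.symm ((h2 _).2 hb₀)) (R₀.symm hb₀)
    · rw [hb _ hy, hb _ hb₀, L.adj _ hb₀ _ hy]
    · obtain ⟨u, rfl⟩ := St.mem_Nb hy
      have h5 := (h1 u c₀ (u⁻¹.1 b₀)).trans ((h3 _ ((St.smul_mem u⁻¹).2 hb₀)).trans (mem_Nb_smul u.2.1).symm)
      rw [show u.1 (u⁻¹.1 b₀) = b₀ by simp] at h5
      exact ⟨fun h => R₀.symm (h5.1 (R.symm h)), fun h => R.symm (h5.2 (R₀.symm h))⟩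
  have h5 := H2 (fun x => F ⁻¹' Nb G a b (F x)) ⟨fun u hu => h1 ⟨u, hu⟩, fun x => R.irrefl _, fun _ _ => R.symm,
    fun x => (h0 _).trans (R.ncard _), Set.ext h2, Set.ext h4, h3,
    fun x y h => (h0 (_ ∩ _)).trans ((R.adj_count h).trans (L.counts R R₀).1),
    fun x y h h' => (h0 (_ ∩ _)).trans ((R.non_count h (Φ.injective.ne h')).trans (L.counts R R₀).2)⟩
  refine ⟨Φ, fun x y => ?_⟩
  rcases R₀.cover a₀ x with rfl | hx | hx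
  · exact h2 y
  all_goals
    obtain ⟨u, rfl⟩ := St.mem_Nb hx
    obtain ⟨y, rfl⟩ := u.1.surjective y
  · exact (h1 u _ y).trans ((h4 y).trans (mem_Nb_smul u.2.1).symm)
  · exact (h1 u _ y).trans ((Set.ext_iff.1 h5 y).trans (mem_Nb_smul u.2.1).symm)

theorem iso_of_graph_iso (R : R3 G a b c k l) (R₀ : R3 G₀ a₀ b₀ c₀ k l) (h : Hom G a ψ) (F : Ω₀ ≃ Ω)
    (hF : ∀ x y, F y ∈ Nb G a b (F x) ↔ y ∈ Nb G₀ a₀ b₀ x) [IsSimpleGroup G₀]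
    (HA : ∀ A : Subgroup (Perm Ω₀), G₀ ≤ A → (∀ σ ∈ A, ∀ x, Nb G₀ a₀ b₀ (σ • x) = σ • Nb G₀ a₀ b₀ x) →
      Nat.card A ≤ 2 * Nat.card G₀) : Nonempty (G ≃* G₀) := by
  let A : Subgroup (Perm Ω₀) :=
    { carrier := {σ | ∀ x y, σ y ∈ Nb G₀ a₀ b₀ (σ x) ↔ y ∈ Nb G₀ a₀ b₀ x}
      one_mem' := fun _ _ => Iff.rfl
      mul_mem' := fun h h' x y => (h _ _).trans (h' x y)
      inv_mem' := fun h x y => (h _ _).symm.trans (by simp) }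
  have h1 : Nat.card (St G a) = Nat.card (St G₀ a₀) :=
    h.range ▸ (Nat.card_congr (MonoidHom.ofInjective h.inj).toEquiv).symm
  have h2 := F.symm.permCongrHom.subgroupMap G
  have h3 : 0 < Nat.card (St G₀ a₀) := Nat.card_pos
  refine ⟨eq_of_card_le (A := A) (G₀ := G₀) (G₁ := G.map F.symm.permCongrHom) (fun σ h x y => mem_Nb_smul h) ?_ ?_
    (HA A (fun σ h x y => mem_Nb_smul h) fun σ h x => Set.ext fun y => ?_) ?_ ▸ h2⟩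
  · rintro _ ⟨σ, h, rfl⟩ x y
    rw [← hF, ← hF x y, ← mem_Nb_smul h (x := F x)]
    simp
  · rw [← Nat.card_congr h2.toEquiv, R.card_stab a, R₀.card_stab a₀, h1]
  · obtain ⟨y, rfl⟩ := σ.surjective y
    exact (h x y).trans (Set.smul_mem_smul_set_iff (a := σ)).symm
  · have := R.k1
    have := R.l1
    rw [R₀.card_stab a₀]
    nlinarith

/-- the facts about the model -/
structure Facts (G₀ : Subgroup (Perm Ω₀)) (a₀ b₀ c₀ : Ω₀) (k l : ℕ) : Prop where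
  R : R3 G₀ a₀ b₀ c₀ k l
  simple : IsSimpleGroup G₀
  hd : ¬ k + 1 ∣ 1 + k + l
  HK : ∀ K : Subgroup (St G₀ a₀), k * Nat.card K = Nat.card (St G₀ a₀) → ∃ x ∈ Nb G₀ a₀ b₀ a₀, ∀ u ∈ K, u.1 x = x
  H1 : ∀ X ⊆ Nb G₀ a₀ b₀ a₀, (∀ u ∈ St G₀ a₀, u b₀ = b₀ → ∀ x ∈ X, u x ∈ X) → b₀ ∉ X →
    l ∣ k * (k - 1 - X.ncard) → X = Nb G₀ a₀ b₀ b₀ ∩ Nb G₀ a₀ b₀ a₀ ∨ X.ncard = k - 1
  HL : ∀ K : Subgroup (St G₀ a₀), l * Nat.card K = Nat.card (St G₀ a₀) → ∀ M ⊆ Nb G₀ a₀ b₀ a₀,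
    (∀ u ∈ K, ∀ x ∈ M, u.1 x ∈ M) → M.ncard = (Nb G₀ a₀ b₀ c₀ ∩ Nb G₀ a₀ b₀ a₀).ncard →
    (∀ x ∈ M, ∃ z ∈ Nb G₀ a₀ b₀ a₀, z ≠ b₀ ∧ z ∉ Nb G₀ a₀ b₀ b₀ ∧
      (Nb G₀ a₀ b₀ x ∩ M).ncard = (Nb G₀ a₀ b₀ z ∩ (Nb G₀ a₀ b₀ b₀ ∩ Nb G₀ a₀ b₀ a₀)).ncard) →
    ∃ (α : St G₀ a₀ ≃* St G₀ a₀) (σ : Perm Ω₀), Tw b₀ α σ ∧
      ∃ y ∈ Nb G₀ a₀ c₀ a₀, σ • M = Nb G₀ a₀ b₀ y ∩ Nb G₀ a₀ b₀ a₀
  hinj : ∀ y ∈ Nb G₀ a₀ c₀ a₀, (∀ x ∈ Nb G₀ a₀ b₀ a₀, x ∈ Nb G₀ a₀ b₀ c₀ → x ∈ Nb G₀ a₀ b₀ y) → y = c₀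
  H2 : ∀ N, Cand G₀ a₀ b₀ c₀ k N → N c₀ = Nb G₀ a₀ b₀ c₀
  HA : ∀ A : Subgroup (Perm Ω₀), G₀ ≤ A → (∀ σ ∈ A, ∀ x, Nb G₀ a₀ b₀ (σ • x) = σ • Nb G₀ a₀ b₀ x) →
    Nat.card A ≤ 2 * Nat.card G₀

theorem Facts.iso (F : Facts G₀ a₀ b₀ c₀ k l) (R : R3 G a b c k l) (h : Hom G a ψ) : Nonempty (G ≃* G₀) := by
  obtain ⟨f, L⟩ := exists_loc R F.R h F.hd F.HK F.H1
  obtain ⟨ψ, f, L, c', hc, h⟩ := exists_loc2 R F.R L F.HL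
  obtain ⟨Φ, hΦ⟩ := exists_graph_iso R F.R L hc h F.hinj F.H2
  exact haveI := F.simple; iso_of_graph_iso R F.R L.hom Φ hΦ F.HA

theorem R3.of_orbits [Fintype Ω] [IsPretransitive G Ω] (hΩ : Fintype.card Ω = 1 + k + l)
    (hb : (orbit (stabilizer G a) b).ncard = k) (hc : (orbit (stabilizer G a) c).ncard = l) (h : k ≠ l ∧ 1 < k ∧ 1 < l) :
    R3 G a b c k l :=
  ⟨fun x => (exists_smul_eq G a x).elim fun σ e => ⟨σ.1, σ.2, e⟩, Nb_self ▸ hb, Nb_self ▸ hc,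
    Nat.card_eq_fintype_card.trans hΩ, h.1, h.2.1, h.2.2⟩

theorem exists_hom {H : Type*} [Group H] (e : stabilizer G a ≃* H) : ∃ ψ : H →* Perm Ω, Hom G a ψ :=
  ⟨(G.subtype.comp (stabilizer G a).subtype).comp e.symm.toMonoidHom,
    ((subtype_injective _).comp (subtype_injective _)).comp e.symm.injective,
    Subgroup.ext fun σ => ⟨fun ⟨u, h⟩ => h ▸ ⟨(e.symm u).1.2, (e.symm u).2⟩,
      fun h => ⟨e ⟨⟨σ, h.1⟩, h.2⟩, by simp⟩⟩⟩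

/-- recognition theorem -/
theorem Facts.recog {Ω : Type*} [Fintype Ω] (F : Facts G₀ a₀ b₀ c₀ k l) (hΩ : Fintype.card Ω = 1 + k + l)
    (G : Subgroup (Perm Ω)) [IsPretransitive G Ω] {a b c : Ω} (e : stabilizer G a ≃* St G₀ a₀)
    (hb : (orbit (stabilizer G a) b).ncard = k) (hc : (orbit (stabilizer G a) c).ncard = l) : Nonempty (G ≃* G₀) :=
  (exists_hom e).elim fun _ h => F.iso (R3.of_orbits hΩ hb hc ⟨F.R.ne, F.R.k1, F.R.l1⟩) h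

end CfsgLib.Rank3
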