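import Mathlib
import Cfsg.Agent.Lib.Rank3.Recog
import Cfsg.Agent.Lib.SubCl.Tree
import Cfsg.Agent.Lib.Comput.VMod

/-!
# The facts about a rank 3 model from Boolean tests
-/

set_option autoImplicit false

namespace CfsgLib.Rank3

open CfsgLib.Comput CfsgLib.SubCl MulAction Subgroup Equiv
open scoped Pointwise

variable {n : ℕ} [NeZero n] {g : ℕ → Perm (Fin n)} {step : ℕ → ℕ → ℕ} {G₀ : Subgroup (Perm (Fin n))}
  {A a b c D E Rb Rc k l : ℕ}

local notation "pt" => finPt n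
local notation "N" => Nb G₀ (pt a) (pt b)
local notation "H" => St G₀ (pt a)

theorem mem_of_inA {W : List Net} {j : ℕ} (h : InA (permG n W) (2 ^ j - 1) G₀) (hj : W.length ≤ j) (m : ℕ) :
    permG n W m ∈ G₀ := by
  by_cases hm : m < j
  · exact h m ((Nat.testBit_two_pow_sub_one j m).trans (decide_eq_true hm))
  · rw [permG, nth_eq_getD, List.getD_eq_default _ _ (hj.trans (not_lt.1 hm)), perm_eq_one_of_fix (netPerm n Net.nil)
      (acts_netPerm (Net.OK_nil _)).2]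
    exact one_mem _

theorem sem_full : sem n pt (2 ^ n - 1) = Set.univ := Set.eq_univ_of_forall fun i =>
  ⟨i, i.2, by rw [Nat.testBit_two_pow_sub_one]; exact decide_eq_true i.2, finPt_coe i⟩

variable (g step G₀ A a b c D E Rb Rc k l) in
/-- a rank 3 model -/
structure Md : Prop where
  M : SM g n pt step
  hg : ∀ m, g m ∈ G₀
  hA : InA g A H
  ha : a < n
  hb : b < n
  hc : c < n
  hD : N (pt a) = sem n pt D
  hE : Nb G₀ (pt a) (pt c) (pt a) = sem n pt E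
  hRb : N (pt b) = sem n pt Rb
  hRc : N (pt c) = sem n pt Rc
  R : R3 G₀ (pt a) (pt b) (pt c) k l

theorem nb_eq (M : SM g n pt step) {hs : List ℕ} (hH : H = cl g hs) (hb : b < n)
    (h : band (Nat.beq (orb step (sing hs) (Nat.shiftLeft 1 b)) D) (closedB step hs D) = true) :
    N (pt a) = sem n pt D := by
  obtain ⟨h1, h2⟩ := band_eq_true.1 h
  have h3 := Nat.eq_of_beq_eq_true h1 ▸ orb_spec M (sub_sing.2 hH.ge) (Nat.shiftLeft 1 b)
  refine Set.ext fun y => ⟨fun ⟨σ, h4, h5, h6⟩ => ?_, fun hy => ?_⟩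
  · rw [← h6, ← M.closed_sound h2 σ (hH.le ⟨h4, h5⟩)]
    exact Set.smul_mem_smul_set (h3.1 ((sem_single _ hb).ge rfl))
  · obtain ⟨σ, h4, z, hz, rfl⟩ := h3.2 y hy
    exact ⟨σ, h4.1, h4.2, congrArg σ ((sem_single _ hb).le hz).symm⟩

theorem row_eq (M : SM g n pt step) (hg : ∀ m, g m ∈ G₀) (hD : N (pt a) = sem n pt D) (t : ℕ) :
    N (ev g t • pt a) = sem n pt (act step t D) := by
  rw [Nb_smul (ev_mem_of_all hg t), hD, M.sem_act]

/-- `(t, x, R)`: `R` is the neighbourhood of `x = t a` -/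
noncomputable def rowOK (step : ℕ → ℕ → ℕ) (n a D : ℕ) (r : ℕ × ℕ × ℕ) : Bool :=
  band (Nat.ble (Nat.succ r.2.1) n) (band (Nat.beq (act step r.1 (Nat.shiftLeft 1 a)) (Nat.shiftLeft 1 r.2.1))
    (Nat.beq (act step r.1 D) r.2.2))

theorem rowOK_sound (M : SM g n pt step) (hg : ∀ m, g m ∈ G₀) (hD : N (pt a) = sem n pt D) (ha : a < n)
    {r : ℕ × ℕ × ℕ} (h : rowOK step n a D r = true) : r.2.1 < n ∧ N (pt r.2.1) = sem n pt r.2.2 := by
  obtain ⟨h1, h2⟩ := band_eq_true.1 h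
  obtain ⟨h2, h3⟩ := band_eq_true.1 h2
  have h1 := Nat.le_of_ble_eq_true h1
  exact ⟨h1, by rw [← M.smul_pt ha h1 h2, row_eq M hg hD, Nat.eq_of_beq_eq_true h3]⟩

/-- the test of a model -/
noncomputable def mdOK (step : ℕ → ℕ → ℕ) (n : ℕ) (hs top : List ℕ) (a b c D E Rb Rc k l u v : ℕ) : Bool :=
  band (band (Nat.ble (Nat.succ a) n) (band (rowOK step n a D (u, b, Rb)) (rowOK step n a D (v, c, Rc))))
    (band (band (band (Nat.beq (orb step (sing hs) (Nat.shiftLeft 1 b)) D) (closedB step hs D))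
      (band (Nat.beq (orb step (sing hs) (Nat.shiftLeft 1 c)) E) (closedB step hs E)))
    (band (Nat.beq (orb step (sing top) (Nat.shiftLeft 1 a)) (2 ^ n - 1))
      (decide (pop n D = k ∧ pop n E = l ∧ n = 1 + k + l ∧ k ≠ l ∧ 1 < k ∧ 1 < l))))

theorem md_of (M : SM g n pt step) (hg : ∀ m, g m ∈ G₀) {hs top : List ℕ} (hH : H = cl g hs) (hA : InA g A (cl g hs))
    {u v : ℕ} (h : mdOK step n hs top a b c D E Rb Rc k l u v = true) : Md g step G₀ A a b c D E Rb Rc k l := by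
  simp only [mdOK, band_eq_true (a := band _ _), band_eq_true (a := Nat.ble _ _), band_eq_true (a := rowOK _ _ _ _ _),
    band_eq_true (b := decide _), decide_eq_true_eq] at h
  obtain ⟨⟨h0, h1, h2⟩, ⟨h3, h4⟩, h5, h6, h7, h8, h9⟩ := h
  have ha := Nat.le_of_ble_eq_true h0
  have hb := Nat.le_of_ble_eq_true (band_eq_true.1 h1).1
  have hc := Nat.le_of_ble_eq_true (band_eq_true.1 h2).1
  have hD := nb_eq M hH hb h3
  have hE := nb_eq M hH hc h4
  refine ⟨M, hg, hH ▸ hA, ha, hb, hc, hD, hE, (rowOK_sound M hg hD ha h1).2, (rowOK_sound M hg hD ha h2).2,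
    fun x => ?_, by rw [hD, M.ncard_sem, h6], by rw [hE, M.ncard_sem, h7], by simpa using h8, h9.1, h9.2.1, h9.2.2⟩
  obtain ⟨σ, h10, z, hz, e⟩ := (orb_spec M (K := G₀) (sub_sing.2 (cl_le.2 fun w _ => ev_mem_of_all hg w)) _).2 x
    (by rw [Nat.eq_of_beq_eq_true h5, sem_full]; trivial)
  exact ⟨σ, h10, (congrArg σ ((sem_single _ ha).le hz).symm).trans e⟩

/-- the elements are in the alphabet `A` and fix `b` -/
noncomputable def fixOK (step : ℕ → ℕ → ℕ) (A b : ℕ) (Y : List (List ℕ)) : Bool :=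
  allL (fun y => band (allL (inA A) y) (Nat.beq (actL step y (Nat.shiftLeft 1 b)) (Nat.shiftLeft 1 b))) Y

theorem fixOK_sound {G Ω : Type*} [Group G] [MulAction G Ω] {g : ℕ → G} {n : ℕ} {p : ℕ → Ω} (M : SM g n p step)
    {K : Subgroup G} (hA : InA g A K) (hb : b < n) {Y : List (List ℕ)} (h : fixOK step A b Y = true) :
    Sub g Y (K ⊓ stabilizer G (p b)) := fun y hy => by
  obtain ⟨h1, h2⟩ := band_eq_true.1 (allL_sound h y hy)
  refine ⟨evL_mem fun w hw => ev_mem hA (allL_sound h1 w hw), Set.singleton_injective ?_⟩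
  rw [← Set.smul_set_singleton, ← sem_single p hb, ← M.sem_actL]
  exact congrArg _ (Nat.eq_of_beq_eq_true h2)

theorem mem_of_closed {G Ω : Type*} [Group G] [MulAction G Ω] {g : ℕ → G} {n : ℕ} {p : ℕ → Ω} (M : SM g n p step)
    {ws : List ℕ} (h : band (band (Nat.ble (Nat.succ b) n) (tb D b)) (closedB step ws D) = true) :
    ∀ x ∈ cl g ws, x • p b ∈ sem n p D := fun x hx => by
  obtain ⟨h1, h2⟩ := band_eq_true.1 h
  obtain ⟨h1, h3⟩ := band_eq_true.1 h1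
  exact M.closed_sound h2 x hx ▸ Set.smul_mem_smul_set ((M.mem_sem (Nat.le_of_ble_eq_true h1)).2 (tb_eq D b ▸ h3))

namespace Md

variable (m : Md g step G₀ A a b c D E Rb Rc k l)
include m

theorem kD : KInv H (sem n pt D) := fun u hu _ hx => m.hD ▸ (St.smul_mem ⟨u, hu⟩).2 (m.hD ▸ hx)

theorem kE : KInv H (sem n pt E) := fun u hu _ hx => m.hE ▸ (St.smul_mem ⟨u, hu⟩).2 (m.hE ▸ hx)

theorem oD : ∀ x ∈ sem n pt D, ∃ h ∈ H, h • pt b = x := fun _ hx =>
  (St.mem_Nb (m.hD ▸ hx)).elim fun u e => ⟨u.1, u.2, e⟩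

theorem oE : ∀ x ∈ sem n pt E, ∃ h ∈ H, h • pt c = x := fun _ hx =>
  (St.mem_Nb (m.hE ▸ hx)).elim fun u e => ⟨u.1, u.2, e⟩

theorem cD {s : ℕ} (h : Nat.card H = k * s) : Nat.card (H ⊓ stabilizer _ (pt b) : Subgroup _) = s :=
  Nat.eq_of_mul_eq_mul_left (zero_lt_one.trans m.R.k1) ((m.R.hb ▸ card_orb (pt a) (pt b)).symm.trans h)

theorem cE {s : ℕ} (h : Nat.card H = l * s) : Nat.card (H ⊓ stabilizer _ (pt c) : Subgroup _) = s :=
  Nat.eq_of_mul_eq_mul_left (zero_lt_one.trans m.R.l1) ((m.R.hc ▸ card_orb (pt a) (pt c)).symm.trans h)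

theorem HK {s : ℕ} (h : Nat.card H = k * s) (hG : ∀ K ≤ H, Nat.card K = s → Goal K (sem n pt D))
    (K : Subgroup H) (hK : k * Nat.card K = Nat.card H) : ∃ x ∈ N (pt a), ∀ u ∈ K, u.1 x = x :=
  (hG _ (map_subtype_le K) ((card_map_of_injective (subtype_injective _)).trans
    (Nat.eq_of_mul_eq_mul_left (zero_lt_one.trans m.R.k1) (hK.trans h)))).imp fun _ e =>
      ⟨m.hD ▸ e.1, fun u hu => e.2 _ ⟨u, hu, rfl⟩⟩

theorem H1 {Y : List (List ℕ)} (h : band (fixOK step A b Y) (parts step n Y 100 D fun ls => allU (fun U s =>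
      bor (tb U b) (Bool.rec true (bor (Nat.beq U (Nat.land Rb D)) (Nat.beq s (k - 1)))
        (Nat.beq (k * (k - 1 - s) % l) 0))) k ls 0 0) = true) :
    ∀ X ⊆ N (pt a), (∀ u ∈ H, u (pt b) = pt b → ∀ x ∈ X, u x ∈ X) → pt b ∉ X →
      l ∣ k * (k - 1 - X.ncard) → X = N (pt b) ∩ N (pt a) ∨ X.ncard = k - 1 := fun X h1 h2 h3 h4 => by
  obtain ⟨h5, h6⟩ := band_eq_true.1 h
  obtain ⟨U, rfl, h7⟩ := exists_of_allU m.M (fixOK_sound m.M m.hA m.hb h5) h6 (fun u hu => h2 u hu.1 hu.2)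
    (m.hD ▸ h1) (m.R.hb ▸ Set.ncard_le_ncard h1)
  rw [Nat.mod_eq_zero_of_dvd h4, tb_eq] at h7
  refine (bor_eq_true.1 ((bor_eq_true.1 h7).resolve_left fun e => h3 ((m.M.mem_sem m.hb).2 e))).imp (fun e => ?_)
    Nat.eq_of_beq_eq_true
  rw [m.hD, m.hRb, ← sem_land m.M]
  exact congrArg _ (Nat.eq_of_beq_eq_true e)

theorem hinj {ts : List ℕ} (h : band (allL (fun t => force (act step t (Nat.shiftLeft 1 a)) fun P =>
      Nat.beq (Nat.land (Nat.land D Rc) P) P) ts)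
      (Nat.beq (List.rec E (fun t _ ih => Nat.land (act step t D) ih) ts) (Nat.shiftLeft 1 c)) = true) :
    ∀ y ∈ Nb G₀ (pt a) (pt c) (pt a), (∀ x ∈ N (pt a), x ∈ N (pt c) → x ∈ N y) → y = pt c := fun y hy h1 => by
  obtain ⟨h2, h3⟩ := band_eq_true.1 h
  refine (sem_single _ m.hc).le (show y ∈ sem n pt (Nat.shiftLeft 1 c) from Nat.eq_of_beq_eq_true h3 ▸ ?_)
  replace h2 := allL_sound h2
  clear h h3
  induction ts with
  | nil => exact m.hE ▸ hy
  | cons t ts ih =>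
    refine (sem_land m.M _ _).ge ⟨?_, ih fun u hu => h2 u (List.mem_cons_of_mem _ hu)⟩
    have h4 := h2 t List.mem_cons_self
    rw [force_eq] at h4
    have h5 := (sem_land m.M _ _).le (congrArg (sem n pt) (Nat.eq_of_beq_eq_true h4) ▸ (m.M.sem_act t _).ge
      (Set.smul_mem_smul_set ((sem_single _ m.ha).ge rfl)))
    have h6 := (sem_land m.M _ _).le h5.1
    exact row_eq m.M m.hg m.hD t ▸ m.R.symm (h1 _ (m.hD ▸ h6.1) (m.hRc ▸ h6.2))

theorem H2 {Y : List (List ℕ)} (h : band (fixOK step A c Y) (force (k - pop n (Nat.land Rc D)) fun j =>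
      parts step n Y 100 E fun ls => allU (fun U s => Bool.rec true (Nat.beq U (Nat.land Rc E)) (Nat.beq s j))
        j ls 0 0) = true) (N' : Fin n → Set (Fin n)) (C : Cand G₀ (pt a) (pt b) (pt c) k N') : N' (pt c) = N (pt c) := by
  obtain ⟨h5, h6⟩ := band_eq_true.1 h
  rw [force_eq] at h6
  have h0 : pt c ∉ N (pt a) := fun e => m.R.disj e ⟨1, one_mem _, rfl, rfl⟩
  have h1 : pt a ∉ N' (pt c) := fun e => h0 (C.ha ▸ C.symm _ _ e)
  have h2 : (N' (pt c) ∩ sem n pt E).ncard = k - pop n (Nat.land Rc D) := by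
    rw [← C.card (pt c), ← m.M.ncard_sem, show Nat.land Rc D = Rc &&& D from rfl, sem_land m.M, ← m.hRc, ← m.hD,
      ← Set.ncard_sdiff fun x hx => (C.hc x hx.2).2 hx.1, ← m.hE]
    exact congrArg _ (Set.ext fun x => ⟨fun hx => ⟨hx.1, fun e => m.R.disj e.2 hx.2⟩, fun hx => ⟨hx.1,
      ((m.R.cover (pt a) x).resolve_left fun e => h1 (e ▸ hx.1)).resolve_left fun e => hx.2 ⟨(C.hc x e).1 hx.1, e⟩⟩⟩)
  obtain ⟨U, h3, h7⟩ := exists_of_allU m.M (fixOK_sound m.M m.hA m.hc h5) h6 (Z := N' (pt c) ∩ sem n pt E)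
    (fun u hu x hx => ⟨(hu.2 : u (pt c) = pt c) ▸ (C.inv u hu.1 _ x).2 hx.1, m.kE u hu.1 x hx.2⟩)
    Set.inter_subset_right h2.le
  rw [h2, Nat.beq_refl] at h7
  rw [Nat.eq_of_beq_eq_true h7, show Nat.land Rc E = Rc &&& E from rfl, sem_land m.M, ← m.hRc, ← m.hE] at h3
  ext x
  rcases m.R.cover (pt a) x with rfl | e | e
  · exact iff_of_false h1 fun e => h0 (m.R.symm e)
  · exact C.hc x e
  · exact (and_iff_left e).symm.trans ((Set.ext_iff.1 h3 x).symm.trans (and_iff_left e))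

theorem HA {g' : ℕ → Perm (Fin n)} {step' : ℕ → ℕ → ℕ} (M' : SM g' n pt step') (hg : ∀ j, g' j ∈ G₀) {ls : List Stp}
    {B : ℕ} (h : autGo step' n a D (2 ^ n - 1) ls [] [] B = true) (hB : B ≤ 2 * Nat.card G₀)
    (A : Subgroup (Perm (Fin n))) (h1 : G₀ ≤ A) (h2 : ∀ σ ∈ A, ∀ x, N (σ • x) = σ • N x) :
    Nat.card A ≤ 2 * Nat.card G₀ :=
  (aut_le ⟨fun j => h1 (hg j), h2, m.ha, m.hD, sem_full, fun _ _ e => Equiv.ext e⟩ M' h).trans hB

omit m in
theorem _root_.CfsgLib.Rank3.Tw.conj (h : H) : Tw (pt b) (MulAut.conj h) h.1 :=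
  ⟨fun u x _ => by simp, fun _ => St.smul_mem h, fun _ _ _ _ => mem_Nb_smul h.2.1⟩

variable (G₀ a b c) in
/-- the set is the neighbourhood of a point of `E` in `D`, up to a twist -/
def Good (U : ℕ) : Prop :=
  ∃ (α : H ≃* H) (σ : Perm (Fin n)), Tw (pt b) α σ ∧ ∃ y ∈ Nb G₀ (pt a) (pt c) (pt a), σ • sem n pt U = N y ∩ N (pt a)

theorem good {α : H ≃* H} {σ : Perm (Fin n)} (T : Tw (pt b) α σ) {U U' t : ℕ} (hU : σ • sem n pt U = sem n pt U')
    (h : band (force (act step t (Nat.shiftLeft 1 a)) fun P => Nat.beq (Nat.land E P) P)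
      (Nat.beq (Nat.land (act step t D) D) U') = true) : Good G₀ a b c U := by
  obtain ⟨h1, h2⟩ := band_eq_true.1 h
  rw [force_eq] at h1
  refine ⟨α, σ, T, ev g t • pt a, m.hE ▸ ((sem_land m.M _ _).le (congrArg (sem n pt) (Nat.eq_of_beq_eq_true h1) ▸
    (m.M.sem_act t _).ge (Set.smul_mem_smul_set ((sem_single _ m.ha).ge rfl)))).1, ?_⟩
  rw [hU, row_eq m.M m.hg m.hD, m.hD, ← sem_land m.M]
  exact congrArg _ (Nat.eq_of_beq_eq_true h2).symm

theorem HL {s : ℕ} (h : Nat.card H = l * s) {Y Y₀ : List (List ℕ)} (hS : Seed g H s Y) {gs : List ℕ}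
    (hg : ∀ U ∈ gs, Good G₀ a b c U) {rs zs : List (ℕ × ℕ × ℕ)} {rg : ℕ}
    (h1 : band (band (allL (rowOK step n a D) rs) (fixOK step A b Y₀))
      (band (allL (fun r => band (rowOK step n a D r) (tb rg (pop n (Nat.land r.2.2 (Nat.land Rb D))))) zs)
        (cover step Y₀ (fun r => Nat.shiftLeft 1 r.2.1) zs
          (Nat.xor D (Nat.land D (Nat.lor Rb (Nat.shiftLeft 1 b)))))) = true)
    (h2 : force (pop n (Nat.land Rc D)) (fun j => parts step n Y 100 D fun ls => allU (fun U s => Bool.rec true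
      (bor (anyL (fun r => Bool.rec (tb U r.2.1) false (tb rg (pop n (Nat.land r.2.2 U)))) rs) (decide (U ∈ gs)))
        (Nat.beq s j)) j ls 0 0) = true)
    (K : Subgroup H) (hK : l * Nat.card K = Nat.card H) : ∀ M ⊆ N (pt a), (∀ u ∈ K, ∀ x ∈ M, u.1 x ∈ M) →
      M.ncard = (N (pt c) ∩ N (pt a)).ncard → (∀ x ∈ M, ∃ z ∈ N (pt a), z ≠ pt b ∧ z ∉ N (pt b) ∧
        (N x ∩ M).ncard = (N z ∩ (N (pt b) ∩ N (pt a))).ncard) →
      ∃ (α : H ≃* H) (σ : Perm (Fin n)), Tw (pt b) α σ ∧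
        ∃ y ∈ Nb G₀ (pt a) (pt c) (pt a), σ • M = N y ∩ N (pt a) := fun M hM hi hc hr => by
  obtain ⟨u, hu, hs⟩ := hS _ (map_subtype_le K) ((card_map_of_injective (subtype_injective _)).trans
    (Nat.eq_of_mul_eq_mul_left (zero_lt_one.trans m.R.l1) (hK.trans h)))
  rw [force_eq] at h2
  have h3 : (u • M).ncard = pop n (Nat.land Rc D) := by
    rw [Set.ncard_smul_set, hc, m.hRc, m.hD, ← sem_land m.M, m.M.ncard_sem]; rfl
  obtain ⟨U, h4, h5⟩ := exists_of_allU m.M hs h2 (KInv.cj (by rintro _ ⟨v, hv, rfl⟩; exact hi v hv) u)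
    (by rintro _ ⟨x, hx, rfl⟩; exact m.kD u hu x (m.hD ▸ hM hx)) h3.le
  rw [h3, Nat.beq_refl] at h5
  simp only [band_eq_true] at h1
  obtain ⟨⟨h6, h7⟩, h8, h9⟩ := h1
  rcases bor_eq_true.1 h5 with h5 | h5
  · obtain ⟨r, h10, h11⟩ := anyL_sound h5
    obtain ⟨h12, h13⟩ := rowOK_sound m.M m.hg m.hD m.ha (allL_sound h6 r h10)
    have h14 : pt r.2.1 ∈ u • M → tb rg (pop n (Nat.land r.2.2 U)) = true := fun ⟨x, hx, e⟩ => by
      obtain ⟨z, z1, z2, z3, z4⟩ := hr x hx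
      obtain ⟨r', z5, v, hv, _, z6, rfl⟩ := cover_sound m.M (fixOK_sound m.M m.hA m.hb h7) h9 (x := z)
        ((sem_diff m.M _ _).ge ⟨m.hD ▸ z1, fun e => ((sem_lor _ _ _ _).le e).elim (fun e => z3 (m.hRb ▸ e))
          fun e => z2 ((sem_single _ m.hb).le e)⟩)
      obtain ⟨z7, z8⟩ := band_eq_true.1 (allL_sound h8 r' z5)
      obtain ⟨z7, z9⟩ := rowOK_sound m.M m.hg m.hD m.ha z7
      have e1 := Nb_smul (a := pt a) (b := pt b) hv.1.1 (pt b)
      have e2 := Nb_smul (a := pt a) (b := pt b) hv.1.1 (pt a)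
      rw [show v • pt b = pt b from hv.2] at e1
      rw [show v • pt a = pt a from hv.1.2] at e2
      rw [(sem_single _ z7).le z6, Nb_smul hv.1.1, e1, e2, ← Set.smul_set_inter, ← Set.smul_set_inter,
        Set.ncard_smul_set, z9, m.hRb, m.hD, ← sem_land m.M, ← sem_land m.M, m.M.ncard_sem, ← Set.ncard_smul_set u,
        Set.smul_set_inter, ← Nb_smul hu.1, show u • x = _ from e, h13, ← h4, ← sem_land m.M, m.M.ncard_sem] at z4
      exact (congrArg _ z4).trans z8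
    cases e : tb rg (pop n (Nat.land r.2.2 U)) with
    | true => rw [e] at h11; cases h11
    | false =>
      rw [e] at h11
      exact absurd (h14 (h4 ▸ (m.M.mem_sem h12).2 (tb_eq U _ ▸ h11))) (Bool.eq_false_iff.1 e)
  · obtain ⟨α, σ, T, y, hy, e⟩ := hg U (of_decide_eq_true h5)
    exact ⟨_, _, (Tw.conj ⟨u, hu⟩).trans T, y, hy, by rw [mul_smul, ← h4, e]⟩

end Md

end CfsgLib.Rank3
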