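import Mathlib
import Cfsg.Agent.Lib.Rank3.Chk
import Cfsg.Agent.Lib.Comput.Transfer2

/-!
# Additional networks; comparison of two permutation models by a labelling of points
-/

set_option autoImplicit false

namespace CfsgLib.Rank3

open CfsgLib.Comput CfsgLib.SubCl MulAction Subgroup Equiv

/-- the same function; the terms seen by the kernel have well spread hash codes also for sparse bit-sets -/
noncomputable def salt (step : ℕ → ℕ → ℕ) (m x : ℕ) : ℕ :=
  frc (Nat.mod x 1000000000000000003) fun s => step m (fstN x s)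

theorem salt_eq (step : ℕ → ℕ → ℕ) : salt step = step := rfl

theorem lt_add {P : ℕ → Bool} {a k : ℕ} (h1 : ∀ i < a, P i = true) (h2 : allLt (fun i => P (Nat.add a i)) k = true) :
    ∀ i < a + k, P i = true := fun i hi => (lt_or_ge i a).elim (h1 i) fun h =>
  (Nat.add_sub_cancel' h ▸ allLt_sound h2 (i - a) (by omega) : P i = true)

section
variable {n : ℕ} {W W' : List Net}

theorem permG_append {m : ℕ} (h : m < W.length) : permG n (W ++ W') m = permG n W m := by
  rw [permG, permG, nth_eq_getD, nth_eq_getD, List.getD_append _ _ _ _ h]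

theorem inA_append {A : ℕ} {K : Subgroup (Perm (Fin n))} (h : InA (permG n W) A K) (hA : A < 2 ^ W.length) :
    InA (permG n (W ++ W')) A K := fun m hm =>
  permG_append (W' := W') (lt_of_not_ge fun e => by
    rw [Nat.testBit_lt_two_pow (hA.trans_le (Nat.pow_le_pow_right two_pos e))] at hm; cases hm) ▸ h m hm

theorem ev_append {w : ℕ} (h : inA (2 ^ W.length - 1) w = true) : ev (permG n (W ++ W')) w = ev (permG n W) w :=
  (fst_ev _ (permG n W) w).symm.trans ((ev_mem (g := fun m => (permG n (W ++ W') m, permG n W m))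
    (H := (MonoidHom.fst (Perm (Fin n)) (Perm (Fin n))).eqLocus (MonoidHom.snd _ _)) (fun m hm =>
      show permG n (W ++ W') m = permG n W m from permG_append (of_decide_eq_true
        ((Nat.testBit_two_pow_sub_one _ m).symm.trans hm))) h).trans (snd_ev _ _ w))

theorem cl_append {ws : List ℕ} (h : allL (inA (2 ^ W.length - 1)) ws = true) :
    cl (permG n (W ++ W')) ws = cl (permG n W) ws :=
  le_antisymm (cl_le.2 fun w hw => ev_append (W' := W') (allL_sound h w hw) ▸ ev_mem_cl _ hw)
    (cl_le.2 fun w hw => ev_append (W' := W') (allL_sound h w hw) ▸ ev_mem_cl _ hw)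

theorem ok_append (h : allL (Net.ok n) W = true) (h' : allL (Net.ok n) W' = true) :
    allL (Net.ok n) (W ++ W') = true := by
  induction W with
  | nil => exact h'
  | cons N W ih => exact band_eq_true.2 ⟨(band_eq_true.1 h).1, ih (band_eq_true.1 h).2⟩

end

variable {G Ω : Type*} [Group G] [MulAction G Ω] {g : ℕ → G} {n : ℕ} {pt : ℕ → Ω} {step step' : ℕ → ℕ → ℕ}

/-- entry of a table with 16 bits per entry -/
noncomputable def lk (T i : ℕ) : ℕ := Nat.land (Nat.shiftRight T (Nat.mul 16 i)) 65535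

/-- the words act compatibly with the labelling `L` (with left inverse `I` and values in `D`) -/
noncomputable def labOK (step step' : ℕ → ℕ → ℕ) (n n' L I D : ℕ) (es : List (ℕ × ℕ)) (i : ℕ) : Bool :=
  force (lk L i) fun x => band (band (Nat.ble (Nat.succ x) n) (band (Nat.beq (lk I x) i) (tb D x)))
    (allL (fun e => force (lk e.2 i) fun j => band (Nat.ble (Nat.succ j) n')
      (band (Nat.beq (act step e.1 (Nat.shiftLeft 1 x)) (Nat.shiftLeft 1 (lk L j)))
        (Nat.beq (act step' e.1 (Nat.shiftLeft 1 i)) (Nat.shiftLeft 1 j)))) es)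

theorem exists_equiv_of_lab {n' : ℕ} [NeZero n'] {p : ℕ → Perm (Fin n')} (M : SM g n pt step)
    (M' : SM p n' (finPt n') step') {L I D : ℕ} {es : List (ℕ × ℕ)}
    (h : ∀ i < n', labOK step step' n n' L I D es i = true) {K : Subgroup G} [Finite K]
    (hK : cl g (es.map Prod.fst) ≤ K) (hc : Nat.card K ≤ Nat.card (cl p (es.map Prod.fst))) :
    ∃ e : K ≃* cl p (es.map Prod.fst), ∃ f : Fin n' → Ω, f.Injective ∧ (∀ i, f i ∈ sem n pt D) ∧
      ∀ (x : K) (i : Fin n'), (x : G) • f i = f ((e x : Perm (Fin n')) i) := by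
  simp only [labOK, force_eq, band_eq_true] at h
  have h1 : ∀ i < n', lk L i < n := fun i hi => Nat.le_of_ble_eq_true (h i hi).1.1
  have h2 : ∀ i < n', ∀ j < n', pt (lk L i) = pt (lk L j) → i = j := fun i hi j hj e => by
    rw [← Nat.eq_of_beq_eq_true (h i hi).1.2.1, M.inj _ (h1 i hi) _ (h1 j hj) e, Nat.eq_of_beq_eq_true (h j hj).1.2.1]
  obtain ⟨-, e, he⟩ := exists_equiv_of_acts (pt := fun i => pt (lk L i)) h2 (fun w hw i => by
    obtain ⟨e, he, rfl⟩ := List.mem_map.1 hw
    obtain ⟨h3, h4⟩ := band_eq_true.1 (allL_sound (h i i.2).2 e he)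
    obtain ⟨h4, h5⟩ := band_eq_true.1 h4
    have h3 := Nat.le_of_ble_eq_true h3
    have h6 := M'.smul_pt i.2 h3 h5
    rw [finPt_coe, Perm.smul_def] at h6
    rw [h6, finPt_val h3]
    exact M.smul_pt (h1 i i.2) (h1 _ h3) h4) hK hc
  exact ⟨e, fun i => pt (lk L i), fun i j e => Fin.ext (h2 i i.2 j j.2 e),
    fun i => (M.mem_sem (h1 i i.2)).2 (tb_eq D _ ▸ (h i i.2).1.2.2), he⟩

/-- fixed points of subgroups of given order, transported along an isomorphism -/
theorem goal_transfer {G' Ω' : Type*} [Group G'] [MulAction G' Ω'] {H : Subgroup G} {H' : Subgroup G'} (e : H ≃* H')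
    {T : Set Ω} {T' : Set Ω'} (R : ∀ y ∈ T', ∃ x ∈ T, ∀ u : H, (e u : G') • y = y → (u : G) • x = x) {m : ℕ}
    (h : ∀ K ≤ H', Nat.card K = m → Goal K T') (K : Subgroup G) (hK : K ≤ H) (hm : Nat.card K = m) : Goal K T := by
  obtain ⟨y, hy, h1⟩ := h (((K.subgroupOf H).map e).map H'.subtype) (map_subtype_le _) (by
    rw [card_map_of_injective (subtype_injective _), card_map_of_injective e.injective,
      Nat.card_congr (subgroupOfEquivOfLe hK).toEquiv, hm])
  obtain ⟨x, hx, h2⟩ := R y hy
  exact ⟨x, hx, fun k hk => h2 ⟨k, hK hk⟩ (h1 _ ⟨_, ⟨_, hk, rfl⟩, rfl⟩)⟩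

end CfsgLib.Rank3
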