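import Mathlib
import Cfsg.Agent.Lib.Rank3.Lab
import Cfsg.Agent.Lib.LeechId.Basic

/-!
# Automorphisms of the point stabiliser induced by automorphisms of the local graph
-/

set_option autoImplicit false

namespace CfsgLib.Rank3

open CfsgLib.Comput CfsgLib.SubCl MulAction Subgroup Equiv
open scoped Pointwise

theorem exists_equiv_of_lab' {G Ω : Type*} [Group G] [MulAction G Ω] {g : ℕ → G} {n : ℕ} {pt : ℕ → Ω}
    {step step' : ℕ → ℕ → ℕ} {n' : ℕ} [NeZero n'] {p : ℕ → Perm (Fin n')} (M : SM g n pt step)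
    (M' : SM p n' (finPt n') step') {L I D : ℕ} {es : List (ℕ × ℕ)}
    (h : ∀ i < n', labOK step step' n n' L I D es i = true) {K : Subgroup G} [Finite K]
    (hK : cl g (es.map Prod.fst) ≤ K) (hc : Nat.card K ≤ Nat.card (cl p (es.map Prod.fst))) :
    ∃ e : K ≃* cl p (es.map Prod.fst), (Function.Injective fun i : Fin n' => pt (lk L i)) ∧
      (∀ i : Fin n', pt (lk L i) ∈ sem n pt D) ∧
      ∀ (x : K) (i : Fin n'), (x : G) • pt (lk L i) = pt (lk L ((e x : Perm (Fin n')) i)) := by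
  simp only [labOK, force_eq, band_eq_true] at h
  have h1 : ∀ i < n', lk L i < n := fun i hi => Nat.le_of_ble_eq_true (h i hi).1.1
  have h2 : ∀ i < n', ∀ j < n', pt (lk L i) = pt (lk L j) → i = j := fun i hi j hj e => by
    rw [← Nat.eq_of_beq_eq_true (h i hi).1.2.1, M.inj _ (h1 i hi) _ (h1 j hj) e, Nat.eq_of_beq_eq_true (h j hj).1.2.1]
  obtain ⟨-, e, he⟩ := exists_equiv_of_acts (pt := fun i => pt (lk L i)) h2 (fun w hw i => by
    obtain ⟨e, he, rfl⟩ := List.mem_map.1 hw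
    obtain ⟨h3, h4⟩ := band_eq_true.1 (allL_sound (h i i.2).2 e he)
    obtain ⟨h4, h5⟩ := band_eq_true.1 h4
    have h3 := Nat.le_of_ble_eq_true h3
    have h6 := M'.smul_pt i.2 h3 h5
    rw [finPt_coe, Perm.smul_def] at h6
    rw [h6, finPt_val h3]
    exact M.smul_pt (h1 i i.2) (h1 _ h3) h4) hK hc
  exact ⟨e, fun i j e => Fin.ext (h2 i i.2 j j.2 e), fun i => (M.mem_sem (h1 i i.2)).2 (tb_eq D _ ▸ (h i i.2).1.2.2), he⟩

/-- the words permute the sets `Ms` as they permute their numbers -/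
noncomputable def setOK (step step' : ℕ → ℕ → ℕ) (n' : ℕ) (Ms : List ℕ) (es : List (ℕ × ℕ)) (i : ℕ) : Bool :=
  allL (fun e => force (lk e.2 i) fun j => band (Nat.ble (Nat.succ j) n')
    (band (Nat.beq (act step e.1 (nth 0 Ms i)) (nth 0 Ms j))
      (Nat.beq (act step' e.1 (Nat.shiftLeft 1 i)) (Nat.shiftLeft 1 j)))) es

theorem nonempty_equiv_of_sets {G Ω : Type*} [Group G] [MulAction G Ω] {g : ℕ → G} {n : ℕ} {pt : ℕ → Ω}
    {step step' : ℕ → ℕ → ℕ} {n' : ℕ} [NeZero n'] {p : ℕ → Perm (Fin n')} (M : SM g n pt step)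
    (M' : SM p n' (finPt n') step') {Ms : List ℕ} {es : List (ℕ × ℕ)} (hM : LeechId.msOK n n' Ms = true)
    (h : allLt (setOK step step' n' Ms es) n' = true) {K : Subgroup G} [Finite K]
    (hK : cl g (es.map Prod.fst) ≤ K) (hc : Nat.card K ≤ Nat.card (cl p (es.map Prod.fst))) :
    Nonempty (K ≃* cl p (es.map Prod.fst)) := by
  obtain ⟨-, e, -⟩ := exists_equiv_of_acts (LeechId.ms_inj M.inj hM) (fun w hw i => by
    obtain ⟨e, he, rfl⟩ := List.mem_map.1 hw
    have h3 := allL_sound (allLt_sound h i i.2) e he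
    rw [force_eq] at h3
    obtain ⟨h3, h4⟩ := band_eq_true.1 h3
    obtain ⟨h4, h5⟩ := band_eq_true.1 h4
    have h3 := Nat.le_of_ble_eq_true h3
    have h6 := M'.smul_pt i.2 h3 h5
    rw [finPt_coe, Perm.smul_def] at h6
    rw [h6, finPt_val h3, ← M.sem_act, Nat.eq_of_beq_eq_true h4]) hK hc
  exact ⟨e⟩

variable {n : ℕ} [NeZero n] {g : ℕ → Perm (Fin n)} {step : ℕ → ℕ → ℕ} {G₀ : Subgroup (Perm (Fin n))}
  {A a b c D E Rb Rc k l : ℕ}

/-- a network relating two labellings of the neighbours of `a` -/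
theorem Md.tw (m : Md g step G₀ A a b c D E Rb Rc k l) {P : Subgroup (Perm (Fin k))}
    {e e' : St G₀ (finPt n a) ≃* P} {L L' : ℕ} (h1 : Function.Injective fun i : Fin k => finPt n (lk L i))
    (h2 : ∀ i : Fin k, finPt n (lk L i) ∈ sem n (finPt n) D)
    (he : ∀ (x : St G₀ (finPt n a)) (i : Fin k), x.1 • finPt n (lk L i) = finPt n (lk L ((e x).1 i)))
    (he' : ∀ (x : St G₀ (finPt n a)) (i : Fin k), x.1 • finPt n (lk L' i) = finPt n (lk L' ((e' x).1 i)))
    {W : List Net} (hW : allL (Net.ok n) W = true)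
    (h : band (allLt (fun i => band (band (Nat.ble (Nat.succ (lk L i)) n) (Nat.ble (Nat.succ (lk L' i)) n))
      (Nat.beq (act (stepN W) 1 (Nat.shiftLeft 1 (lk L i))) (Nat.shiftLeft 1 (lk L' i)))) k)
      (band (Nat.beq (act (stepN W) 1 (Nat.shiftLeft 1 b)) (Nat.shiftLeft 1 b))
        (closedB (stepN W) [1] D && closedB (stepN W) [1] (Nat.land Rb D))) = true) :
    Tw (finPt n b) (e.trans e'.symm) (ev (permG n W) 1) := by
  have M := SM.perm hW m.M.small
  simp only [band_eq_true, Bool.and_eq_true] at h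
  obtain ⟨h3, h4, h5, h6⟩ := h
  have h7 : ∀ i : Fin k, ev (permG n W) 1 (finPt n (lk L i)) = finPt n (lk L' i) := fun i => by
    obtain ⟨h7, h8⟩ := band_eq_true.1 (allLt_sound h3 i i.2)
    exact M.smul_pt (Nat.le_of_ble_eq_true (band_eq_true.1 h7).1) (Nat.le_of_ble_eq_true (band_eq_true.1 h7).2) h8
  have h8 : ∀ u : St G₀ (finPt n a), ∀ x ∈ Nb G₀ (finPt n a) (finPt n b) (finPt n a),
      ev (permG n W) 1 (u.1 x) = ((e.trans e'.symm) u).1 (ev (permG n W) 1 x) := fun u x hx => by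
    obtain ⟨i, rfl⟩ := (Set.eq_of_subset_of_ncard_le (Set.range_subset_iff.2 h2) (by
      rw [← m.hD, m.R.hb, Set.ncard_range_of_injective h1, Nat.card_fin]) (sem_finite _ _ _)).ge (m.hD ▸ hx)
    rw [h7, ← Perm.smul_def u.1, he, h7, ← Perm.smul_def _ (finPt n (lk L' i)), he', MulEquiv.trans_apply,
      MulEquiv.apply_symm_apply]
  have h9 : ∀ x, ev (permG n W) 1 x ∈ Nb G₀ (finPt n a) (finPt n b) (finPt n a) ↔
      x ∈ Nb G₀ (finPt n a) (finPt n b) (finPt n a) := fun x => by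
    rw [m.hD]
    conv_lhs => rw [← M.closed_sound h5 _ (ev_mem_cl _ List.mem_cons_self)]
    exact Set.smul_mem_smul_set_iff
  refine ⟨h8, h9, fun x hx y hy => ?_⟩
  obtain ⟨u, rfl⟩ := St.mem_Nb hx
  obtain ⟨y, rfl⟩ := u.1.surjective y
  have hy' := (St.smul_mem u).1 hy
  have h10 := M.closed_sound h6 _ (ev_mem_cl _ List.mem_cons_self)
  rw [show Nat.land Rb D = Rb &&& D from rfl, sem_land m.M, ← m.hRb, ← m.hD] at h10
  rw [h8 u y hy', h8 u (finPt n b) ⟨1, one_mem _, rfl, rfl⟩, mem_Nb_smul ((e.trans e'.symm) u).2.1, mem_Nb_smul u.2.1,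
    show ev (permG n W) 1 (finPt n b) = _ from M.smul_pt m.hb m.hb h4]
  exact (and_iff_left ((h9 y).2 hy')).symm.trans ((Set.ext_iff.1 h10 _).symm.trans
    ((Set.smul_mem_smul_set_iff (a := ev (permG n W) 1)).trans (and_iff_left hy')))

end CfsgLib.Rank3
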